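import Cfsg.Agent.Lib.FT.PF10.Setup
import Cfsg.Agent.Lib.FT.PF9.Galois
import Cfsg.Agent.Lib.FT.PF9.Ind
import Cfsg.Agent.Lib.CoprimeAction.Abelian
import Cfsg.Agent.S1545

/-!
# The action of `U` on `H = M_F` for types III and IV (group part of Peterfalvi 11)
-/

set_option autoImplicit false
set_option linter.style.haveILetI false
set_option linter.unusedSectionVars false
set_option maxHeartbeats 400000
set_option synthInstance.maxHeartbeats 40000

open Cfsg
open CfsgLib.BGAppendix (fittingHallOf_le le_normalizer_fittingHallOf)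
open scoped commutatorElement

namespace CfsgLib.FT.PF11

universe u

variable {G : Type u} [Group G]

/-- The kernel of the action of `U` on `M_F`. -/
abbrev kerU (M U : Subgroup G) : Subgroup G :=
  U ⊓ Subgroup.centralizer (fittingHallOf M : Set G)

/-- `HC`. -/
abbrev fitU (M U : Subgroup G) : Subgroup G := fittingHallOf M ⊔ kerU M U

/-- The setting of Peterfalvi 11, with a chief factor `H / H₀`. -/
structure Data (M W₁ U W₂ H₀ : Subgroup G) : Prop where
  setting : PF10.Setting M W₁ U W₂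
  U_ne : U ≠ ⊥
  chief : PF9.ChiefData M W₁ U W₂ H₀ (Nat.card W₂)

variable [Finite G] {M W₁ U W₂ H₀ : Subgroup G}

theorem exists_data (h : PF10.Setting M W₁ U W₂) (hU : U ≠ ⊥) :
    ∃ H₀, Data M W₁ U W₂ H₀ := by
  obtain ⟨H₀, p, hC⟩ := PF9.exists_chiefData h.data hU
  have e : p = Nat.card W₂ := by
    have hd : p ∣ Nat.card W₂ := hC.card_W₂ ▸ Subgroup.index_dvd_card _
    rcases (Nat.dvd_prime h.prime).1 hd with e | e
    · exact absurd e hC.prime.ne_one
    · exact e
  exact ⟨H₀, h, hU, e ▸ hC⟩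

/-- The number of elements of an invariant subgroup is congruent to that of the fixed ones. -/
theorem card_modEq_centralizer {W X : Subgroup G} {q : ℕ} (hq : q.Prime) (hW : Nat.card W = q)
    (hn : W ≤ Subgroup.normalizer (X : Set G)) :
    Nat.card X ≡ Nat.card ↥(X ⊓ Subgroup.centralizer (W : Set G)) [MOD q] := by
  haveI := Fact.mk hq
  letI : MulAction W X :=
    { smul := fun w x => ⟨(w : G) * x * (w : G)⁻¹,
        (Subgroup.mem_normalizer_iff.1 (hn w.2) x).1 x.2⟩
      one_smul := fun x => Subtype.ext (by show (1 : G) * x * (1 : G)⁻¹ = x; simp)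
      mul_smul := fun a b x => Subtype.ext (by
        show (a * b : G) * x * (a * b : G)⁻¹ = a * (b * x * (b : G)⁻¹) * (a : G)⁻¹
        group) }
  have hp : IsPGroup q W := IsPGroup.of_card (n := 1) (by rw [hW, pow_one])
  refine (hp.card_modEq_card_fixedPoints X).trans ?_
  rw [show Nat.card (MulAction.fixedPoints W X) = Nat.card ↥(X ⊓ Subgroup.centralizer (W : Set G)) from ?_]
  refine Nat.card_congr
    { toFun := fun z => ⟨(z.1 : G), z.1.2, Subgroup.mem_centralizer_iff.2 fun w hw => ?_⟩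
      invFun := fun y => ⟨⟨(y : G), y.2.1⟩, fun w => Subtype.ext ?_⟩
      left_inv := fun _ => rfl
      right_inv := fun _ => rfl }
  · have e : w * (z.1 : G) * w⁻¹ = z.1 := congrArg Subtype.val (z.2 ⟨w, hw⟩)
    exact mul_inv_eq_iff_eq_mul.1 e
  · show (w : G) * (y : G) * (w : G)⁻¹ = y
    rw [Subgroup.mem_centralizer_iff.1 y.2.2 w w.2, mul_inv_cancel_right]

namespace Data

variable (h : Data M W₁ U W₂ H₀)
include h

theorem q_prime : (Nat.card W₁).Prime := h.chief.W₁_prime

theorem p_prime : (Nat.card W₂).Prime := h.setting.prime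

theorem inf_W₂ : H₀ ⊓ W₂ = ⊥ := by
  have h1 := Subgroup.card_mul_index (H₀.subgroupOf W₂)
  rw [show (H₀.subgroupOf W₂).index = Nat.card W₂ from h.chief.card_W₂] at h1
  have h2 : Nat.card (H₀.subgroupOf W₂) = 1 := by
    refine Nat.eq_of_mul_eq_mul_right (Nat.card_pos (α := W₂)) ?_
    rw [h1, one_mul]
  rw [Subgroup.card_eq_one] at h2
  exact disjoint_iff.1 (Subgroup.subgroupOf_eq_bot.1 h2)

theorem H₀_normalized : U ⊔ W₁ ≤ Subgroup.normalizer (H₀ : Set G) :=
  (PF9.UW_le h.setting.data).trans h.chief.normal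

/-- `U` centralizes `H₀`. -/
theorem U_le_centralizer_H₀ : U ≤ Subgroup.centralizer (H₀ : Set G) := by
  have hP := h.setting.data
  haveI := h.setting.solv
  haveI : Group.IsSolvable H₀ :=
    CfsgLib.CoprimeAction.isSolvable_of_le (h.chief.le.trans (fittingHallOf_le M))
  have key := Cfsg.Agent.S1545.result U W₁ H₀ h.U_ne hP.W₁_ne (PF9.inter_U_W₁ hP)
    (fun e he x hx => (Subgroup.mem_normalizer_iff.1 (hP.U_normal he) x).1 hx)
    (fun e he he1 x hx hc => Subgroup.mem_bot.1
      ((PF9.U_inf_centralizer hP he he1).le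
        ⟨hx, Subgroup.mem_centralizer_singleton_iff.2 hc.symm⟩))
    (fun x hx y hy => (Subgroup.mem_normalizer_iff.1 (h.H₀_normalized hx) y).1 hy)
    (le_bot_iff.1 ((inf_le_inf_right _ h.chief.le).trans (PF9.F_inf_UW hP).le)) inferInstance
    ((PF9.coprime_F_UW hP).coprime_dvd_left (Subgroup.card_dvd_of_le h.chief.le))
  have h1 : H₀ ⊓ Subgroup.centralizer (W₁ : Set G) = ⊥ := by
    refine le_bot_iff.1 (le_trans (le_inf inf_le_left ?_) h.inf_W₂.le)
    rw [← PF9.F_inf_centralizer_W₁ hP]
    exact inf_le_inf_right _ h.chief.le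
  have h2 : H₀ ⊓ Subgroup.centralizer ((U ⊔ W₁ : Subgroup G) : Set G) = ⊥ :=
    le_bot_iff.1 ((inf_le_inf_left _ (Subgroup.centralizer_le
      (show (W₁ : Set G) ⊆ ((U ⊔ W₁ : Subgroup G) : Set G) from fun x hx =>
        Subgroup.mem_sup_right hx))).trans h1.le)
  rw [h1, h2, Subgroup.card_bot, one_pow, one_mul, one_mul] at key
  have e := Subgroup.eq_of_le_of_card_ge
    (inf_le_left : H₀ ⊓ Subgroup.centralizer (U : Set G) ≤ H₀) key.le
  have e2 : H₀ ≤ Subgroup.centralizer (U : Set G) := e.ge.trans inf_le_right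
  exact Subgroup.le_centralizer_iff.1 e2

/-- An element of `U` trivial on `H / H₀` centralizes `H`. -/
theorem coreC_eq : PF9.coreC M U H₀ = kerU M U := by
  apply le_antisymm <;> intro c hc
  · refine Subgroup.mem_inf.2 ⟨hc.1, Subgroup.mem_centralizer_iff.2 fun y hy => ?_⟩
    set z := ⁅c, y⁆ with hz
    have hz0 : z ∈ H₀ := by
      rw [hz, ← commutatorElement_inv]
      exact inv_mem ((PF9.mem_centMod.1 hc.2).2 y hy)
    have hcz : c * z = z * c :=
      (Subgroup.mem_centralizer_iff.1 (h.U_le_centralizer_H₀ hc.1) z hz0).symm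
    have hn : ∀ n : ℕ, c ^ n * y * (c ^ n)⁻¹ = z ^ n * y := by
      intro n
      induction n with
      | zero => simp
      | succ k ih =>
        have e1 : c * z ^ k * c⁻¹ = z ^ k := by
          rw [(Commute.pow_right (show Commute c z from hcz) k).eq, mul_inv_cancel_right]
        have e2 : c * y * c⁻¹ = z * y := by rw [hz, commutatorElement_def]; group
        calc c ^ (k + 1) * y * (c ^ (k + 1))⁻¹ = c * (c ^ k * y * (c ^ k)⁻¹) * c⁻¹ := by
              rw [pow_succ']; group
          _ = (c * z ^ k * c⁻¹) * (c * y * c⁻¹) := by rw [ih]; group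
          _ = z ^ (k + 1) * y := by rw [e1, e2, pow_succ, mul_assoc]
    have hzn : z ^ Nat.card U = 1 := by
      have e := hn (Nat.card U)
      have hc1 : c ^ Nat.card U = 1 := orderOf_dvd_iff_pow_eq_one.1
        (Subgroup.orderOf_mk c hc.1 ▸ orderOf_dvd_natCard (⟨c, hc.1⟩ : U))
      rw [hc1, inv_one, one_mul, mul_one] at e
      exact (mul_eq_right.1 e.symm)
    have hcop : (Nat.card U).Coprime (Nat.card (fittingHallOf M)) :=
      ((PF9.coprime_F_UW h.setting.data).coprime_dvd_right
        (Subgroup.card_dvd_of_le le_sup_left)).symm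
    have hzH : z ∈ fittingHallOf M := h.chief.le hz0
    have hzm : z ^ Nat.card (fittingHallOf M) = 1 := orderOf_dvd_iff_pow_eq_one.1
      (Subgroup.orderOf_mk z hzH ▸ orderOf_dvd_natCard (⟨z, hzH⟩ : fittingHallOf M))
    have hz1 : z = 1 := by
      rw [← orderOf_eq_one_iff]
      exact Nat.eq_one_of_dvd_coprimes hcop (orderOf_dvd_of_pow_eq_one hzn)
        (orderOf_dvd_of_pow_eq_one hzm)
    exact (commutatorElement_eq_one_iff_mul_comm.1 hz1).symm
  · refine Subgroup.mem_inf.2 ⟨hc.1, h.H₀_normalized (Subgroup.mem_sup_left hc.1), fun y hy => ?_⟩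
    rw [commutatorElement_eq_one_iff_mul_comm.2 (Subgroup.mem_centralizer_iff.1 hc.2 y hy)]
    exact one_mem _

theorem U_normalizer_kerU {g : G} (hg : g ∈ U ⊔ W₁) {c : G} (hc : c ∈ kerU M U) :
    g * c * g⁻¹ ∈ kerU M U := by
  rw [← h.coreC_eq] at hc ⊢
  exact PF9.conj_mem_coreC h.setting.data h.chief hg hc

theorem fitU_le_derived : fitU M U ≤ ⁅M, M⁆ :=
  sup_le (PF9.F_le_derived h.setting.data)
    (inf_le_left.trans (PF9.U_le_derived h.setting.data))

theorem fitU_le : fitU M U ≤ M := h.fitU_le_derived.trans (Subgroup.commutator_le_self M)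

theorem fitU_normalized : M ≤ Subgroup.normalizer (fitU M U : Set G) := by
  have hP := h.setting.data
  refine (PF9.sup_eq hP).ge.trans ?_
  refine sup_le (le_sup_left.trans Subgroup.le_normalizer) fun g hg =>
    CfsgLib.CoprimeAction.mem_normalizer_of_conj_mem fun x hx => ?_
  have hle : fitU M U ≤ (fitU M U).comap (MulAut.conj g).toMonoidHom := sup_le
    (fun y hy => Subgroup.mem_sup_left
      ((Subgroup.mem_normalizer_iff.1 (le_normalizer_fittingHallOf M (PF9.UW_le hP hg)) y).1 hy))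
    (fun c hc => Subgroup.mem_sup_right (h.U_normalizer_kerU hg hc))
  simpa using hle hx

theorem F_inf_kerU : fittingHallOf M ⊓ kerU M U = ⊥ :=
  le_bot_iff.1 ((inf_le_inf_left _ inf_le_left).trans h.setting.data.U_compl.2.2.1.le)

theorem card_fitU : Nat.card ↥(fitU M U) = Nat.card (fittingHallOf M) * Nat.card ↥(kerU M U) :=
by
  rw [fitU, sup_comm, CfsgLib.BGAppendix.card_sup_eq_mul (kerU M U) (fittingHallOf M)
    (PF9.le_normalizer_F h.setting.data ((inf_le_left : kerU M U ≤ U).trans (PF9.U_le h.setting.data)))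
    (by rw [inf_comm]; exact h.F_inf_kerU), mul_comm]

/-- `u = |U : C|`. -/
theorem one_lt_u : 1 < (kerU M U).relIndex U := by
  refine lt_of_le_of_ne (Nat.one_le_iff_ne_zero.2 Subgroup.index_ne_zero_of_finite) fun e => ?_
  exact (CfsgLib.BGAppendix.typeP_derived_complement h.setting.data).2 h.U_ne
    ((Subgroup.relIndex_eq_one.1 e.symm).trans inf_le_right)

theorem derived_U_le : (⁅U, U⁆ : Subgroup G) ≤ kerU M U :=
  le_inf (Subgroup.commutator_le_self U)
    (CfsgLib.BGAppendix.typeP_derived_complement h.setting.data).1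

theorem relIndex_fitU : (fitU M U).relIndex ⁅M, M⁆ = (kerU M U).relIndex U := by
  have h1 := PF9.card_derived h.setting.data
  have h2 : Nat.card ↥(fitU M U) * (fitU M U).relIndex ⁅M, M⁆ = Nat.card ↥(⁅M, M⁆ : Subgroup G) := by
    rw [← Subgroup.relIndex_bot_left, ← Subgroup.relIndex_bot_left (H := (⁅M, M⁆ : Subgroup G))]
    exact Subgroup.relIndex_mul_relIndex ⊥ _ _ bot_le h.fitU_le_derived
  have h3 : Nat.card ↥(kerU M U) * (kerU M U).relIndex U = Nat.card U := by
    rw [← Subgroup.relIndex_bot_left, ← Subgroup.relIndex_bot_left (H := U)]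
    exact Subgroup.relIndex_mul_relIndex ⊥ _ _ bot_le inf_le_left
  rw [← h1, h.card_fitU, ← h3, ← mul_assoc] at h2
  exact Nat.eq_of_mul_eq_mul_left (Nat.mul_pos Nat.card_pos Nat.card_pos) h2

end Data

end CfsgLib.FT.PF11
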