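import Cfsg.Agent.Lib.BGMainTypes.WeakSets
import Cfsg.Agent.Lib.FT.PF11.Action
import Cfsg.Agent.Lib.FT.Subcoherent
import Cfsg.Agent.S1517
import Cfsg.Agent.S1519
import Cfsg.Agent.S1520

/-!
# Peterfalvi (11.3), (11.5): the coherence bound and `HC = M''`

The only character input is the non-coherence (10.8) of the characters induced from `M'`.
-/

set_option autoImplicit false
set_option linter.style.haveILetI false
set_option linter.unusedSectionVars false
set_option maxHeartbeats 400000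
set_option synthInstance.maxHeartbeats 40000

open Cfsg
open CfsgLib.BGAppendix (fittingHallOf_le le_normalizer_fittingHallOf)
open scoped commutatorElement

namespace CfsgLib.FT.PF11

open CfsgLib.BGMainTypes (IsTypeIWeak typeAW typeA0W SupportsW)

universe u

variable {G : Type u} [Group G] {M W₁ U W₂ H₀ : Subgroup G}

/-- The conclusion of Peterfalvi (10.8). -/
def NonCoherent [Fintype G] (M : Subgroup G) [Fintype M] : Prop :=
  ¬ IsCoherent (inducedIrrAbove (derivedIn M) ⊥) ({1}ᶜ : Set M)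
    (dadeIsometry (typeA0W M) M (supportR M))

/-- Conjugation maps a commutator subgroup of a normalized subgroup to itself. -/
theorem conj_mem_commutator_self {C : Subgroup G} {g : G} (h : ∀ c ∈ C, g * c * g⁻¹ ∈ C) {x : G}
    (hx : x ∈ (⁅C, C⁆ : Subgroup G)) : g * x * g⁻¹ ∈ (⁅C, C⁆ : Subgroup G) := by
  have hle : (⁅C, C⁆ : Subgroup G) ≤ (⁅C, C⁆ : Subgroup G).comap (MulAut.conj g).toMonoidHom :=
    Subgroup.commutator_le.2 fun a ha b hb => by
      show g * ⁅a, b⁆ * g⁻¹ ∈ (⁅C, C⁆ : Subgroup G)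
      rw [show g * ⁅a, b⁆ * g⁻¹ = ⁅g * a * g⁻¹, g * b * g⁻¹⁆ by
        simp only [commutatorElement_def]; group]
      exact Subgroup.commutator_mem_commutator (h a ha) (h b hb)
  simpa using hle hx

theorem exists_mul_of_mem_sup {A B : Subgroup G} (hn : B ≤ Subgroup.normalizer (A : Set G)) {x : G}
    (hx : x ∈ A ⊔ B) : ∃ a ∈ A, ∃ b ∈ B, a * b = x := by
  have h1 : x ∈ ((A ⊔ B : Subgroup G) : Set G) := hx
  rw [Subgroup.coe_mul_of_right_le_normalizer_left A B hn, Set.mem_mul] at h1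
  exact h1

namespace Data

variable [Finite G] (h : Data M W₁ U W₂ H₀)
include h

theorem W₂_ne : W₂ ≠ ⊥ := h.setting.data.selfNormalizing.2.1

theorem five_le : 5 ≤ Nat.card W₁ ∧ 3 ≤ Nat.card W₂ ∨ 3 ≤ Nat.card W₁ ∧ 5 ≤ Nat.card W₂ := by
  obtain ⟨a, ha⟩ : Odd (Nat.card W₁) :=
    h.setting.odd.of_dvd_nat (Subgroup.card_subgroup_dvd_card W₁)
  obtain ⟨b, hb⟩ : Odd (Nat.card W₂) :=
    h.setting.odd.of_dvd_nat (Subgroup.card_subgroup_dvd_card W₂)
  have h1 := h.q_prime.two_le
  have h2 := h.p_prime.two_le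
  have hne : Nat.card W₁ ≠ Nat.card W₂ := fun e => by
    have hP := h.setting.data
    have hcop := hP.W₁_hall
    have hd : Nat.card W₂ ∣ W₁.relIndex M := by
      have hd1 : Nat.card W₂ ∣ Nat.card ↥(⁅M, M⁆ : Subgroup G) :=
        Subgroup.card_dvd_of_le (hP.W₂_le.trans inf_le_left |>.trans (PF9.F_le_derived hP))
      refine hd1.trans (dvd_of_eq ?_)
      have hc := Subgroup.relIndex_mul_relIndex ⊥ W₁ M bot_le (PF9.W₁_le hP)
      rw [Subgroup.relIndex_bot_left, Subgroup.relIndex_bot_left, ← PF9.card_eq hP,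
        PF9.card_derived hP, mul_comm _ (Nat.card W₁)] at hc
      exact (Nat.eq_of_mul_eq_mul_left Nat.card_pos hc).symm
    rw [← e] at hd
    exact h.q_prime.ne_one (Nat.eq_one_of_dvd_coprimes hcop dvd_rfl hd)
  omega

theorem four_q_sq_lt : 4 * Nat.card W₁ ^ 2 + 1 < Nat.card W₂ ^ Nat.card W₁ := by
  obtain ⟨hq, hp⟩ | ⟨hq, hp⟩ := h.five_le
  · refine lt_of_lt_of_le ?_ (Nat.pow_le_pow_left hp _)
    generalize Nat.card W₁ = q at hq ⊢
    induction q, hq using Nat.le_induction with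
    | base => norm_num
    | succ n hn ih => rw [pow_succ 3 n]; nlinarith
  · refine lt_of_lt_of_le ?_ (Nat.pow_le_pow_left hp _)
    generalize Nat.card W₁ = q at hq ⊢
    induction q, hq using Nat.le_induction with
    | base => norm_num
    | succ n hn ih => rw [pow_succ 5 n]; nlinarith

/-- `HC` is nilpotent. -/
theorem fitU_isNilpotent : Group.IsNilpotent ↥(fitU M U) := by
  haveI : Group.IsNilpotent ↥(fittingHallOf M) := PF9.F_isNilpotent h.setting.data
  haveI := h.setting.data.U_nilpotent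
  haveI : Group.IsNilpotent ↥(kerU M U) :=
    Group.nilpotent_of_mulEquiv (Subgroup.subgroupOfEquivOfLe (inf_le_left : kerU M U ≤ U))
  let f : fittingHallOf M × kerU M U →* G :=
    MonoidHom.noncommCoprod (fittingHallOf M).subtype (kerU M U).subtype
      fun x y => (Subgroup.mem_centralizer_iff.1 y.2.2 x x.2)
  have e : f.range = fitU M U := by
    rw [show f.range = _ from MonoidHom.noncommCoprod_range _ _ _, Subgroup.range_subtype,
      Subgroup.range_subtype]
  rw [← e]
  exact Group.nilpotent_of_surjective f.rangeRestrict f.rangeRestrict_surjective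

/-- `H₀C'`. -/
theorem sup_normalized : M ≤ Subgroup.normalizer ((H₀ ⊔ ⁅kerU M U, kerU M U⁆ : Subgroup G) : Set G) := by
  have hP := h.setting.data
  refine (PF9.sup_eq hP).ge.trans (sup_le ?_ ?_) <;>
    refine fun g hg => CfsgLib.CoprimeAction.mem_normalizer_of_conj_mem fun x hx => ?_
  all_goals
    suffices hle : H₀ ⊔ ⁅kerU M U, kerU M U⁆ ≤
        (H₀ ⊔ ⁅kerU M U, kerU M U⁆).comap (MulAut.conj g).toMonoidHom by simpa using hle hx
  · refine sup_le (fun y hy => Subgroup.mem_sup_left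
      ((Subgroup.mem_normalizer_iff.1 (h.chief.normal (fittingHallOf_le M hg)) y).1 hy))
      fun y hy => ?_
    show g * y * g⁻¹ ∈ H₀ ⊔ ⁅kerU M U, kerU M U⁆
    rw [Subgroup.mem_centralizer_iff.1 (Subgroup.commutator_le_self _ hy).2 g hg,
      mul_inv_cancel_right]
    exact Subgroup.mem_sup_right hy
  · exact sup_le (fun y hy => Subgroup.mem_sup_left
      ((Subgroup.mem_normalizer_iff.1 (h.H₀_normalized hg) y).1 hy))
      fun y hy => Subgroup.mem_sup_right
        (conj_mem_commutator_self (fun c hc => h.U_normalizer_kerU hg hc) hy)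

theorem commutator_fitU_le :
    (⁅fitU M U, fitU M U⁆ : Subgroup G) ≤ H₀ ⊔ ⁅kerU M U, kerU M U⁆ := by
  have hn : kerU M U ≤ Subgroup.normalizer (fittingHallOf M : Set G) :=
    PF9.le_normalizer_F h.setting.data
      ((inf_le_left : kerU M U ≤ U).trans (PF9.U_le h.setting.data))
  refine Subgroup.commutator_le.2 fun x hx y hy => ?_
  obtain ⟨a, ha, c, hc, rfl⟩ := exists_mul_of_mem_sup hn hx
  obtain ⟨b, hb, d, hd, rfl⟩ := exists_mul_of_mem_sup hn hy
  have ec : ∀ {t : G}, t ∈ kerU M U → ∀ {z : G}, z ∈ fittingHallOf M → Commute t z :=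
    fun ht _ hz => (Subgroup.mem_centralizer_iff.1 ht.2 _ hz).symm
  have key : ⁅a * c, b * d⁆ = ⁅a, b⁆ * ⁅c, d⁆ := by
    simp only [commutatorElement_def, mul_inv_rev]
    have e1 := ec hc hb
    have e2 := ec hc (inv_mem ha)
    have e3 := ec hc (inv_mem hb)
    have e4 := ec hd (inv_mem ha)
    have e5 := ec (inv_mem hc) (inv_mem hb)
    have e6 := ec (inv_mem hd) (inv_mem ha)
    calc a * c * (b * d) * (c⁻¹ * a⁻¹) * (d⁻¹ * b⁻¹)
        = a * (c * b) * d * c⁻¹ * a⁻¹ * d⁻¹ * b⁻¹ := by group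
      _ = a * b * (c * d * c⁻¹) * a⁻¹ * d⁻¹ * b⁻¹ := by rw [e1.eq]; group
      _ = a * b * a⁻¹ * (c * d * c⁻¹) * d⁻¹ * b⁻¹ := by
          rw [mul_assoc (a * b) (c * d * c⁻¹) a⁻¹,
            ((e2.mul_left e4).mul_left (ec (inv_mem hc) (inv_mem ha))).eq]
          group
      _ = a * b * a⁻¹ * ((c * d * c⁻¹ * d⁻¹) * b⁻¹) := by group
      _ = _ := by
          rw [(((e3.mul_left (ec hd (inv_mem hb))).mul_left e5).mul_left
            (ec (inv_mem hd) (inv_mem hb))).eq]
          group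
  rw [key]
  exact mul_mem (Subgroup.mem_sup_left (h.chief.comm_mem a ha b hb))
    (Subgroup.mem_sup_right (Subgroup.commutator_mem_commutator hc hd))

theorem pow_le_relIndex :
    Nat.card W₂ ^ Nat.card W₁ ≤ (H₀ ⊔ ⁅kerU M U, kerU M U⁆).relIndex (fitU M U) := by
  have hinf : (H₀ ⊔ ⁅kerU M U, kerU M U⁆) ⊓ fittingHallOf M ≤ H₀ := by
    rintro x ⟨hx, hxF⟩
    have hn : (⁅kerU M U, kerU M U⁆ : Subgroup G) ≤ Subgroup.normalizer (H₀ : Set G) :=
      (Subgroup.commutator_le_self _).trans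
        ((inf_le_left : kerU M U ≤ U).trans (le_sup_left.trans h.H₀_normalized))
    obtain ⟨a, ha, c, hc, rfl⟩ := exists_mul_of_mem_sup hn hx
    have hcF : c ∈ fittingHallOf M := (Subgroup.mul_mem_cancel_left _ (h.chief.le ha)).1 hxF
    have : c ∈ fittingHallOf M ⊓ kerU M U := ⟨hcF, Subgroup.commutator_le_self _ hc⟩
    rw [h.F_inf_kerU, Subgroup.mem_bot] at this
    rwa [this, mul_one]
  have e : (H₀ ⊔ ⁅kerU M U, kerU M U⁆).relIndex (fittingHallOf M) =
      H₀.relIndex (fittingHallOf M) := by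
    rw [← Subgroup.inf_relIndex_right, le_antisymm hinf (le_inf le_sup_left h.chief.le)]
  rw [← h.chief.card, ← e]
  exact Subgroup.relIndex_le_of_le_right le_sup_left Subgroup.index_ne_zero_of_finite

/-- `M'' ≤ HC`. -/
theorem derived2_le_fitU : (⁅⁅M, M⁆, ⁅M, M⁆⁆ : Subgroup G) ≤ fitU M U := by
  have hP := h.setting.data
  have hF : ∀ {g : G}, g ∈ (⁅M, M⁆ : Subgroup G) → ∀ {x : G}, x ∈ fittingHallOf M →
      ⁅x, g⁆ ∈ fittingHallOf M := fun {g} hg {x} hx => by
    rw [show ⁅x, g⁆ = x * (g * x⁻¹ * g⁻¹) by simp only [commutatorElement_def]; group]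
    exact mul_mem hx ((Subgroup.mem_normalizer_iff.1
      (le_normalizer_fittingHallOf M (Subgroup.commutator_le_self M hg)) _).1 (inv_mem hx))
  refine Subgroup.commutator_le.2 fun x hx y hy => ?_
  obtain ⟨a, ha, b, hb, rfl⟩ := hP.U_compl.2.2.2 x hx
  obtain ⟨c, hc, d, hd, rfl⟩ := hP.U_compl.2.2.2 y hy
  rw [show ⁅a * b, c * d⁆ = a * (⁅c, b⁆⁻¹ * (c * ⁅b, d⁆ * c⁻¹)) * a⁻¹ * ⁅a, c * d⁆ by
    simp only [commutatorElement_def]; group]
  have ha' : a ∈ fitU M U := Subgroup.mem_sup_left ha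
  have hc' : c ∈ fitU M U := Subgroup.mem_sup_left hc
  exact mul_mem (mul_mem (mul_mem ha' (mul_mem
    (inv_mem (Subgroup.mem_sup_left (hF (PF9.U_le_derived hP hb) hc)))
    (mul_mem (mul_mem hc' (Subgroup.mem_sup_right
      (h.derived_U_le (Subgroup.commutator_mem_commutator hb hd)))) (inv_mem hc'))))
    (inv_mem ha')) (Subgroup.mem_sup_left (hF hy ha))

theorem derived_ne : (⁅M, M⁆ : Subgroup G) ≠ ⊥ := fun e => h.W₂_ne (le_bot_iff.1
  (((PF9.W₂_le_F h.setting.data).trans (PF9.F_le_derived h.setting.data)).trans e.le))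

theorem fitU_lt : fitU M U < ⁅M, M⁆ := by
  refine lt_of_le_of_ne h.fitU_le_derived fun e => ?_
  have := h.relIndex_fitU
  rw [e, Subgroup.relIndex_self] at this
  exact absurd this.symm (Nat.ne_of_gt h.one_lt_u)

section Fintype

variable [Fintype G] [Fintype M]

theorem exists_system :
    ∃ R, IsCoherenceSystem (inducedIrrAbove (derivedIn M) ⊥)
      (dadeIsometry (typeA0W M) M (supportR M)) R := by
  haveI := derivedIn_normal M
  haveI := h.setting.pti.finite_dual
  letI := Fintype.ofFinite (CfsgLib.Coherence.dualTriv (W₁ ⊔ W₂) W₂)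
  obtain ⟨η, hη⟩ := CfsgLib.Coherence.exists_cyclicTIFamily h.setting.pd.snc
    (h.setting.odd.of_dvd_nat (Subgroup.card_subgroup_dvd_card _))
  obtain ⟨ζ, hζ, -, -, -⟩ := h.setting.exists_zeta
  obtain ⟨R, hR, -⟩ := h.setting.pd.exists_coherenceSystem hη
    (h.setting.odd.of_dvd_nat (Subgroup.card_subgroup_dvd_card M)) ⟨ζ, hζ⟩
    (fun χ hχ => h.setting.indNotKer_of_mem hχ)
    (fun χ hχ => CfsgLib.CyclicTI.conjFun_mem_inducedIrrAbove _ hχ)
  exact ⟨R, hR⟩

/-- The coherence bound (11.5): a coherent `S(A)` forces `|M' : A| ≤ 2qu + 1`. -/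
theorem bound (hNC : NonCoherent M) {A : Subgroup G} (hn : M ≤ Subgroup.normalizer (A : Set G))
    (hA : A < ⁅M, M⁆)
    (hcoh : IsCoherent (inducedIrrAbove (derivedIn M) (A.subgroupOf M)) ({1}ᶜ : Set M)
      (dadeIsometry (typeA0W M) M (supportR M))) :
    A.relIndex ⁅M, M⁆ ≤ 2 * Nat.card W₁ * (kerU M U).relIndex U + 1 := by
  classical
  haveI := derivedIn_normal M
  haveI := h.setting.solv
  have hle : (⁅M, M⁆ : Subgroup G) ≤ M := Subgroup.commutator_le_self M
  set B : Subgroup G := H₀ ⊔ ⁅kerU M U, kerU M U⁆ with hB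
  have hBle : B ≤ fitU M U :=
    sup_le_sup h.chief.le (Subgroup.commutator_le_self _)
  haveI hAN : (A.subgroupOf M).Normal :=
    (Subgroup.normal_subgroupOf_iff_le_normalizer (hA.le.trans hle)).2 hn
  haveI hBN : (B.subgroupOf M).Normal :=
    (Subgroup.normal_subgroupOf_iff_le_normalizer (hBle.trans h.fitU_le)).2 h.sup_normalized
  haveI hFN : ((fitU M U).subgroupOf M).Normal :=
    (Subgroup.normal_subgroupOf_iff_le_normalizer h.fitU_le).2 h.fitU_normalized
  haveI : Group.IsSolvable (derivedIn M) := inferInstance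
  obtain ⟨R, hR⟩ := h.exists_system
  have hlt_of : ∀ {X : Subgroup G}, X < ⁅M, M⁆ → X.subgroupOf M < derivedIn M := fun {X} hX =>
    lt_of_le_of_ne (fun x hx => hX.le hx) fun e => hX.ne (by
      have := congrArg (Subgroup.map M.subtype) e
      rwa [Subgroup.map_subgroupOf_eq_of_le (hX.le.trans hle),
        Subgroup.map_subgroupOf_eq_of_le hle] at this)
  have hFK : (fitU M U).subgroupOf M ≤ derivedIn M := fun x hx => h.fitU_le_derived hx
  -- `S(H₀C')` is not coherent
  have hBnc : ¬ IsCoherent (inducedIrrAbove (derivedIn M) (B.subgroupOf M)) ({1}ᶜ : Set M)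
      (dadeIsometry (typeA0W M) M (supportR M)) := by
    intro hBc
    haveI : ((⊥ : Subgroup M).subgroupOf ((fitU M U).subgroupOf M)).Normal := inferInstance
    haveI : Group.IsNilpotent ↥((fitU M U).subgroupOf M) := by
      haveI := h.fitU_isNilpotent
      exact Group.nilpotent_of_mulEquiv (Subgroup.subgroupOfEquivOfLe h.fitU_le).symm
    refine hNC (Cfsg.Agent.S1520.result (derivedIn M) inferInstance _ R hR ⊥ (B.subgroupOf M)
      ((fitU M U).subgroupOf M) bot_le (fun x hx => hBle hx) hFK inferInstance hBc ?_)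
    rw [h.setting.index_derived, Subgroup.relIndex_subgroupOf h.fitU_le]
    exact lt_of_lt_of_le h.four_q_sq_lt h.pow_le_relIndex
  by_contra hlt
  push Not at hlt
  refine hBnc (Cfsg.Agent.S1519.result (derivedIn M) inferInstance _ R hR (A.subgroupOf M)
    (B.subgroupOf M) ((fitU M U).subgroupOf M) ((fitU M U).subgroupOf M) (hlt_of hA)
    (hlt_of (lt_of_le_of_lt hBle h.fitU_lt)) (fun x hx => hBle hx) le_rfl hFK ?_ hcoh ?_)
  · intro x hx y hy
    exact h.commutator_fitU_le (Subgroup.commutator_mem_commutator hx hy)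
  · have hi : ((fitU M U).subgroupOf M).index =
        (kerU M U).relIndex U * Nat.card W₁ := by
      rw [← Subgroup.relIndex_mul_index hFK, h.setting.index_derived,
        Subgroup.relIndex_subgroupOf hle, h.relIndex_fitU]
    rw [Subgroup.relIndex_self, mul_one, Subgroup.relIndex_subgroupOf hle, hi]
    calc 4 * ((kerU M U).relIndex U * Nat.card W₁) ^ 2
        = (2 * Nat.card W₁ * (kerU M U).relIndex U) ^ 2 := by ring
      _ < _ := Nat.pow_lt_pow_left (by omega) two_ne_zero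

theorem derived2_lt : (⁅⁅M, M⁆, ⁅M, M⁆⁆ : Subgroup G) < ⁅M, M⁆ :=
  lt_of_le_of_lt h.derived2_le_fitU h.fitU_lt

/-- `S(M'')` is coherent: all degrees equal `q`. -/
theorem coherent_derived2 :
    IsCoherent (inducedIrrAbove (derivedIn M) ((⁅⁅M, M⁆, ⁅M, M⁆⁆ : Subgroup G).subgroupOf M))
      ({1}ᶜ : Set M) (dadeIsometry (typeA0W M) M (supportR M)) := by
  classical
  haveI := derivedIn_normal M
  haveI := h.setting.solv
  have hle : (⁅M, M⁆ : Subgroup G) ≤ M := Subgroup.commutator_le_self M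
  set D : Subgroup M := (⁅⁅M, M⁆, ⁅M, M⁆⁆ : Subgroup G).subgroupOf M with hD
  have hcomm : ⁅derivedIn M, derivedIn M⁆ ≤ D := Subgroup.commutator_le.2 fun x hx y hy =>
    Subgroup.commutator_mem_commutator (show (x : G) ∈ (⁅M, M⁆ : Subgroup G) from hx)
      (show (y : G) ∈ (⁅M, M⁆ : Subgroup G) from hy)
  haveI : (D.subgroupOf (derivedIn M)).Normal := ⟨fun x hx g => by
    have : ((⁅g, x⁆ : derivedIn M) : M) ∈ D :=
      hcomm (Subgroup.commutator_mem_commutator g.2 x.2)
    show ((g * x * g⁻¹ : derivedIn M) : M) ∈ D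
    rw [show g * x * g⁻¹ = ⁅g, x⁆ * x by simp only [commutatorElement_def]; group]
    exact mul_mem this hx⟩
  haveI : Group.IsSolvable (derivedIn M) := inferInstance
  obtain ⟨φ, hφ, -⟩ := CfsgLib.CyclicTI.exists_min_degree (K := derivedIn M) inferInstance
    (A := D) (fun hKA => h.derived2_lt.not_ge (fun g hg => hKA (x := ⟨g, hle hg⟩) hg))
  obtain ⟨R, hR⟩ := h.exists_system
  refine Cfsg.Agent.S1517.result _ _ R
    (CfsgLib.CyclicTI.CohSys.restrict hR (CfsgLib.CyclicTI.inducedIrrAbove_subset_bot _ _)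
      ⟨φ, hφ⟩ fun ψ hψ => CfsgLib.CyclicTI.conjFun_mem_inducedIrrAbove _ hψ) fun a ha b hb => ?_
  rw [CfsgLib.CyclicTI.degree_of_commutator_le hcomm ha,
    CfsgLib.CyclicTI.degree_of_commutator_le hcomm hb]

/-- Peterfalvi (11.3): `HC = M''`. -/
theorem fitU_eq (hNC : NonCoherent M) : fitU M U = ⁅⁅M, M⁆, ⁅M, M⁆⁆ := by
  haveI := h.setting.solv
  have hP := h.setting.data
  set D : Subgroup G := ⁅⁅M, M⁆, ⁅M, M⁆⁆ with hDdef
  have hDn : M ≤ Subgroup.normalizer (D : Set G) := fun g hg =>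
    CfsgLib.CoprimeAction.mem_normalizer_of_conj_mem fun x hx =>
      conj_mem_commutator_self (fun c hc => (Subgroup.mem_normalizer_iff.1
        (PF9.le_normalizer_commutator_self M hg) c).1 hc) hx
  have hb := h.bound hNC hDn h.derived2_lt h.coherent_derived2
  rw [← Subgroup.relIndex_mul_relIndex D (fitU M U) _ h.derived2_le_fitU h.fitU_le_derived,
    h.relIndex_fitU] at hb
  set m := D.relIndex (fitU M U) with hm
  set u := (kerU M U).relIndex U with hu
  have hu1 : 1 < u := h.one_lt_u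
  have hm2 : m ≤ 2 * Nat.card W₁ := by nlinarith
  -- `W₁` fixes only elements of `M''`
  have hW : ∀ {X : Subgroup G}, M ≤ Subgroup.normalizer (X : Set G) → X ≤ ⁅M, M⁆ → W₂ ≤ X →
      Nat.card X ≡ Nat.card W₂ [MOD Nat.card W₁] := by
    intro X hX hXle h2
    refine (card_modEq_centralizer h.q_prime rfl ((PF9.W₁_le hP).trans hX)).trans ?_
    rw [show X ⊓ Subgroup.centralizer (W₁ : Set G) = W₂ from
      le_antisymm ?_ (le_inf h2 ((PF9.F_inf_centralizer_W₁ hP).ge.trans inf_le_right))]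
    obtain ⟨x, hx, hx1⟩ := (Subgroup.bot_or_exists_ne_one W₁).resolve_left hP.W₁_ne
    rw [← hP.W₂_centralizer x hx hx1]
    exact inf_le_inf hXle (Subgroup.centralizer_le (Set.singleton_subset_iff.2 hx))
  have hW2D : W₂ ≤ D := fun x hx => (hP.W₂_le hx).2
  have h1 := (hW h.fitU_normalized h.fitU_le_derived (hW2D.trans h.derived2_le_fitU)).trans
    (hW hDn (Subgroup.commutator_le_self _) hW2D).symm
  have h2 : Nat.card D * m = Nat.card ↥(fitU M U) := by
    rw [← Subgroup.relIndex_bot_left, ← Subgroup.relIndex_bot_left (H := fitU M U)]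
    exact Subgroup.relIndex_mul_relIndex ⊥ _ _ bot_le h.derived2_le_fitU
  rw [← h2] at h1
  have hcop : (Nat.card W₁).Coprime (Nat.card D) :=
    h.setting.coprime_W₁_derived.coprime_dvd_right
      (Subgroup.card_dvd_of_le (Subgroup.commutator_le_self _))
  have h3 : m ≡ 1 [MOD Nat.card W₁] := by
    refine Nat.ModEq.cancel_left_of_coprime hcop ?_
    rwa [mul_one]
  have hmo : Odd m :=
    (h.setting.odd.of_dvd_nat (Subgroup.card_subgroup_dvd_card (fitU M U))).of_dvd_nat
      (Dvd.intro_left _ h2)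
  obtain ⟨a, ha⟩ : Odd (Nat.card W₁) :=
    h.setting.odd.of_dvd_nat (Subgroup.card_subgroup_dvd_card W₁)
  obtain ⟨b, hb'⟩ := hmo
  have hq3 : 3 ≤ Nat.card W₁ := by have := h.q_prime.two_le; omega
  obtain ⟨k, hk⟩ := (Nat.modEq_iff_dvd' (by omega)).1 h3.symm
  have hm1 : m = 1 := by
    have hk2 : k < 2 := by nlinarith [hk, hm2, Nat.sub_add_cancel (show 1 ≤ m by omega)]
    interval_cases k <;> omega
  exact le_antisymm (Subgroup.relIndex_eq_one.1 hm1) h.derived2_le_fitU

end Fintype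

end Data

end CfsgLib.FT.PF11
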